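import Mathlib
import Cfsg.Agent.Lib.Helper81.FCZ.Defs

/-!
# Project FCZ (S3359 / S4291): a group with two distinct commuting involutions has non-cyclic
Sylow 2-subgroups
-/

set_option autoImplicit false

namespace Cfsg.Agent.Lib.Helper62.FCZ

open Cfsg.Agent.Lib.Helper81.FCZ

universe u

theorem isPGroup_zpowers_of_sq {X : Type u} [Group X] {u : X} (hu2 : u * u = 1) :
    IsPGroup 2 (Subgroup.zpowers u) := by
  rintro ⟨g, hg⟩
  refine ⟨1, ?_⟩
  obtain ⟨k, rfl⟩ := Subgroup.mem_zpowers_iff.mp hg
  apply Subtype.ext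
  show (u ^ k) ^ 2 ^ 1 = 1
  rw [pow_one, ← zpow_natCast, ← zpow_mul, mul_comm, zpow_mul, zpow_natCast, sq, hu2, one_zpow]

/-- A finite group with two distinct commuting involutions has non-cyclic Sylow 2-subgroups. -/
theorem not_C2_of_klein {X : Type u} [Group X] [Finite X] (u v : X) (hu : u ≠ 1) (hv : v ≠ 1)
    (huv : u ≠ v) (hu2 : u * u = 1) (hv2 : v * v = 1) (hc : u * v = v * u) : ¬ C2 X := by
  classical
  intro h
  have : Fact (Nat.Prime 2) := ⟨Nat.prime_two⟩
  have hn : Subgroup.zpowers u ≤ Subgroup.normalizer (Subgroup.zpowers v : Set X) := by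
    refine le_trans ?_ (Subgroup.centralizer_le_normalizer _)
    rw [Subgroup.zpowers_le, Subgroup.mem_centralizer_iff]
    intro g hg
    obtain ⟨k, rfl⟩ := Subgroup.mem_zpowers_iff.mp hg
    exact (Commute.zpow_left (show Commute v u from hc.symm) k).eq
  have hV := (isPGroup_zpowers_of_sq hu2).to_sup_of_normal_right' (isPGroup_zpowers_of_sq hv2) hn
  obtain ⟨P, hP⟩ := hV.exists_le_sylow
  have huP : u ∈ (P : Subgroup X) := hP (Subgroup.mem_sup_left (Subgroup.mem_zpowers u))
  have hvP : v ∈ (P : Subgroup X) := hP (Subgroup.mem_sup_right (Subgroup.mem_zpowers v))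
  have hcyc := h P
  have : Fintype (P : Subgroup X) := Fintype.ofFinite _
  have hle := IsCyclic.card_pow_eq_one_le (α := (P : Subgroup X)) (n := 2) (by norm_num)
  have hsub : ({1, ⟨u, huP⟩, ⟨v, hvP⟩} : Finset (P : Subgroup X)) ⊆
      Finset.univ.filter (fun a => a ^ 2 = 1) := by
    intro x hx
    simp only [Finset.mem_insert, Finset.mem_singleton] at hx
    rw [Finset.mem_filter]
    refine ⟨Finset.mem_univ _, ?_⟩
    rcases hx with rfl | rfl | rfl
    · exact one_pow 2
    · exact Subtype.ext (by simpa [sq] using hu2)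
    · exact Subtype.ext (by simpa [sq] using hv2)
  have hcard : ({1, ⟨u, huP⟩, ⟨v, hvP⟩} : Finset (P : Subgroup X)).card = 3 := by
    rw [Finset.card_insert_of_notMem, Finset.card_insert_of_notMem, Finset.card_singleton]
    · simp only [Finset.mem_singleton]
      intro e
      exact huv (congrArg Subtype.val e)
    · simp only [Finset.mem_insert, Finset.mem_singleton]
      rintro (e | e)
      · exact hu (congrArg Subtype.val e).symm
      · exact hv (congrArg Subtype.val e).symm
  have h3 := Finset.card_le_card hsub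
  omega

/-- The same for a subgroup. -/
theorem not_C2_subgroup_of_klein {X : Type u} [Group X] [Finite X] (K : Subgroup X) (u v : X)
    (huK : u ∈ K) (hvK : v ∈ K) (hu : u ≠ 1) (hv : v ≠ 1)
    (huv : u ≠ v) (hu2 : u * u = 1) (hv2 : v * v = 1) (hc : u * v = v * u) : ¬ C2 K :=
  not_C2_of_klein (X := K) ⟨u, huK⟩ ⟨v, hvK⟩ (fun e => hu (congrArg Subtype.val e))
    (fun e => hv (congrArg Subtype.val e)) (fun e => huv (congrArg Subtype.val e))
    (Subtype.ext hu2) (Subtype.ext hv2) (Subtype.ext hc)

end Cfsg.Agent.Lib.Helper62.FCZ
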