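import Mathlib
import Cfsg.Agent.Lib.Helper81.FCZ.Defs
import Cfsg.Agent.Lib.Helper62.FCZ.Klein

/-!
# Project FCZ (S4291), package [NZ-S4]
-/

set_option autoImplicit false

namespace Cfsg.Agent.Lib.Helper62.FCZ

open Cfsg.Agent.Lib.Helper81.FCZ

/-- `(0 1)(2 3)`. -/
def uS : Equiv.Perm (Fin 4) := Equiv.swap 0 1 * Equiv.swap 2 3

/-- `(0 1 2)`. -/
def cS : Equiv.Perm (Fin 4) := Equiv.swap 0 1 * Equiv.swap 1 2

/-- a second double transposition. -/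
def vS : Equiv.Perm (Fin 4) := cS * uS * cS⁻¹

set_option maxRecDepth 100000 in
theorem keyS4 : ∀ g : Equiv.Perm (Fin 4), g ≠ 1 →
    ∃ a b : Equiv.Perm (Fin 4), b * (a * g * a⁻¹ * g⁻¹) * b⁻¹ = uS ∨ b * g * b⁻¹ = uS := by
  decide

set_option maxRecDepth 100000 in
theorem factsS4 : uS ≠ 1 ∧ vS ≠ 1 ∧ uS ≠ vS ∧ uS * uS = 1 ∧ vS * vS = 1 ∧ uS * vS = vS * uS ∧
    uS * cS ≠ cS * uS := by
  decide

/-- **[NZ-S4]** -/
theorem pkgNZS4 : PkgNZS4 := by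
  obtain ⟨h1, h2, h3, h4, h5, h6, h7⟩ := factsS4
  refine ⟨?_, ⟨uS, cS, h7⟩, not_C2_of_klein uS vS h1 h2 h3 h4 h5 h6⟩
  intro K hK hC2
  by_contra hne
  obtain ⟨⟨g, hg⟩, hg1⟩ := (Subgroup.ne_bot_iff_exists_ne_one).mp hne
  have hg1' : g ≠ 1 := fun e => hg1 (Subtype.ext e)
  obtain ⟨a, b, hab⟩ := keyS4 g hg1'
  have huK : uS ∈ K := by
    rcases hab with e | e
    · rw [← e]
      exact hK.conj_mem _ (K.mul_mem (hK.conj_mem g hg a) (K.inv_mem hg)) b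
    · rw [← e]
      exact hK.conj_mem g hg b
  have hvK : vS ∈ K := hK.conj_mem uS huK cS
  exact not_C2_subgroup_of_klein K uS vS huK hvK h1 h2 h3 h4 h5 h6 hC2

end Cfsg.Agent.Lib.Helper62.FCZ
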