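import Mathlib
import Cfsg.Agent.Lib.Helper81.FCZ.Defs

/-!
# Project FCZ (S3359), package [SL-ORD]: `SL(2,5)` has elements of order 3, 4 and 5
-/

set_option autoImplicit false

namespace Cfsg.Agent.Lib.Helper62.FCZ

open Cfsg.Agent.Lib.Helper81.FCZ

/-- an element of order 3. -/
def s3 : Gam := ⟨!![0, 4; 1, 4], by rw [Matrix.det_fin_two]; decide⟩

/-- an element of order 4. -/
def s4 : Gam := ⟨!![0, 4; 1, 0], by rw [Matrix.det_fin_two]; decide⟩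

/-- an element of order 5. -/
def s5 : Gam := ⟨!![1, 1; 0, 1], by rw [Matrix.det_fin_two]; decide⟩

set_option maxRecDepth 100000 in
theorem s3_facts : s3 ^ 3 = 1 ∧ s3 ≠ 1 := by decide

set_option maxRecDepth 100000 in
theorem s4_facts : ¬ s4 ^ 2 ^ 1 = 1 ∧ s4 ^ 2 ^ (1 + 1) = 1 := by decide

set_option maxRecDepth 100000 in
theorem s5_facts : s5 ^ 5 = 1 ∧ s5 ≠ 1 := by decide

/-- **[SL-ORD]** -/
theorem pkgSLOrd : PkgSLOrd := by
  have : Fact (Nat.Prime 2) := ⟨Nat.prime_two⟩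
  have : Fact (Nat.Prime 3) := ⟨Nat.prime_three⟩
  have : Fact (Nat.Prime 5) := ⟨Nat.prime_five⟩
  refine ⟨⟨s3, orderOf_eq_prime s3_facts.1 s3_facts.2⟩, ⟨s4, ?_⟩,
    ⟨s5, orderOf_eq_prime s5_facts.1 s5_facts.2⟩⟩
  have h := orderOf_eq_prime_pow (p := 2) (n := 1) s4_facts.1 s4_facts.2
  exact h.trans (by norm_num)

end Cfsg.Agent.Lib.Helper62.FCZ
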